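import Cfsg.Agent.H888.RatMain
set_option linter.all false

/-!
Subfield subgroups of orthogonal groups in dimension at least 7 are maximal (all characteristics, any
type).
-/

set_option autoImplicit false

namespace Cfsg.Agent.H888.SubfieldMax

open QuadraticMap hiding proj
open Cfsg.Agent.LieClassical.OrthCore Cfsg.Agent.LieClassical.OrthTrans
  Cfsg.Agent.LieClassical.OrthFinite Cfsg.Agent.H883.Root Cfsg.Agent.H883.Bridge
  Cfsg.Agent.H888.Rat

section CoordFree

variable {F V : Type*} [Field F] [AddCommGroup V] [Module F V] {ι : Type*}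
variable {b : Module.Basis ι F V} {F₀ : Subfield F} {Q : QuadraticForm F V}

/-- The normaliser of a rational structure in `E Q` is proper. -/
theorem stR_lt [Fintype ι] [Finite F] (hQ : Nondeg Q) (hR : IsRat Q b F₀)
    (hn : 7 ≤ Fintype.card ι) (hF : ∃ c : F, c ∉ F₀) : stR b F₀ ⊓ E Q < E Q := by
  refine lt_of_le_of_ne inf_le_right fun he => ?_
  obtain ⟨c, hc⟩ := hF
  obtain ⟨e, f, Fr⟩ := exists_frame hQ hR hn
  have hp : polar Q (e 0) (c • e 1) = 0 := by rw [polar_smul_right, Fr.ee, smul_zero]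
  have h1 : siegel Q (e 0) (c • e 1) (Fr.Qe 0) hp ∈ stR b F₀ ⊓ E Q := by
    rw [he]
    exact siegel_mem_E _ _
  have h0 : e 0 ≠ 0 := by
    intro h
    have := Fr.ef 0 0
    rw [h, polar_zero_left] at this
    simp at this
  have h01 : e 1 ≠ 0 := by
    intro h
    have := Fr.ef 1 1
    rw [h, polar_zero_left] at this
    simp at this
  have hfix : siegel Q (e 0) (c • e 1) (Fr.Qe 0) hp (e 0) = e 0 :=
    siegel_fix _ _ (Fr.ee 0 0) (by rw [polar_smul_left, Fr.ee, smul_zero])
  have h2 := map_rat_of_fix h1.1 (Fr.e_mem 0) h0 hfix (Fr.f_mem 0)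
  rw [siegel_apply, polar_smul_left, QuadraticMap.map_smul, Fr.Qe, Fr.ef, Fr.ef] at h2
  simp only [if_true, Fin.isValue, one_ne_zero, if_false, one_smul, smul_zero, zero_smul, zero_mul,
    sub_zero] at h2
  have h3 := (rat b F₀).sub_mem h2 (Fr.f_mem 0)
  rw [add_sub_cancel_left] at h3
  exact hc (mem_of_smul_mem (Fr.e_mem 1) h01 h3)

theorem stR_maximal [Fintype ι] [Finite F] (hQ : Nondeg Q) (hR : IsRat Q b F₀)
    (hn : 7 ≤ Fintype.card ι) {r : ℕ} (hr : r.Prime) (hcard : Nat.card F = Nat.card F₀ ^ r) :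
    Cfsg.Geo.IsMaximalIn (E Q) (stR b F₀ ⊓ E Q) := by
  refine ⟨stR_lt hQ hR hn ?_, fun M h1 h2 => overgroups hQ hR hn hr hcard h1 h2⟩
  by_contra hcon
  push Not at hcon
  have h1 : Nat.card F₀ = Nat.card F := by
    refine Nat.card_congr (Equiv.ofBijective (fun x : F₀ => (x : F)) ⟨Subtype.val_injective, ?_⟩)
    intro c
    exact ⟨⟨c, hcon c⟩, rfl⟩
  have h2 : 1 < Nat.card F₀ := Finite.one_lt_card
  rw [← h1] at hcard
  have h3 : Nat.card F₀ ^ 1 = Nat.card F₀ ^ r := by rw [pow_one]; exact hcard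
  have h4 := Nat.pow_right_injective h2 h3
  exact hr.one_lt.ne h4

end CoordFree

section Matrices

variable {ι : Type} [Fintype ι] [DecidableEq ι] {F : Type*} [Field F]

/-- The basis of columns of `P`. -/
noncomputable def colBasis (P : Matrix.GeneralLinearGroup ι F) : Module.Basis ι F (ι → F) :=
  (Pi.basisFun F ι).map (glEquiv ι F P)

theorem colBasis_repr (P : Matrix.GeneralLinearGroup ι F) (v : ι → F) (i : ι) :
    (colBasis P).repr v i = ((P⁻¹ : Matrix.GeneralLinearGroup ι F) : Matrix ι ι F).mulVec v i := by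
  rw [colBasis, Module.Basis.map_repr]
  show ((Pi.basisFun F ι).repr ((glEquiv ι F P).symm v)) i = _
  rw [Pi.basisFun_repr]
  have : (glEquiv ι F P).symm v = glEquiv ι F P⁻¹ v := by
    rw [map_inv]; rfl
  rw [this, glEquiv_apply]

theorem mem_rat_colBasis {F₀ : Subfield F} {P : Matrix.GeneralLinearGroup ι F} {v : ι → F} :
    v ∈ rat (colBasis P) F₀ ↔
      ∀ i, ((P⁻¹ : Matrix.GeneralLinearGroup ι F) : Matrix ι ι F).mulVec v i ∈ F₀ := by
  rw [mem_rat]
  simp_rw [colBasis_repr]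

theorem mulVec_mem_rat {F₀ : Subfield F} {P : Matrix.GeneralLinearGroup ι F} {u : ι → F}
    (hu : ∀ i, u i ∈ F₀) : (P : Matrix ι ι F).mulVec u ∈ rat (colBasis P) F₀ := by
  rw [mem_rat_colBasis]
  intro i
  rw [Matrix.mulVec_mulVec, ← Units.val_mul, inv_mul_cancel, Units.val_one, Matrix.one_mulVec]
  exact hu i

theorem exists_of_mem_rat {F₀ : Subfield F} {P : Matrix.GeneralLinearGroup ι F} {v : ι → F}
    (hv : v ∈ rat (colBasis P) F₀) : ∃ u : ι → F, (∀ i, u i ∈ F₀) ∧
      v = (P : Matrix ι ι F).mulVec u := by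
  refine ⟨_, mem_rat_colBasis.1 hv, ?_⟩
  rw [Matrix.mulVec_mulVec, ← Units.val_mul, mul_inv_cancel, Units.val_one, Matrix.one_mulVec]

theorem mem_subfieldSubgroup_iff {F₀ : Subfield F} {P g : Matrix.GeneralLinearGroup ι F} :
    g ∈ Cfsg.Geo.subfieldSubgroup F₀ P ↔ ∃ (g₀ : Matrix.GeneralLinearGroup ι F₀) (c : Fˣ), ∀ i j,
      (((P⁻¹ * g * P : Matrix.GeneralLinearGroup ι F) : Matrix ι ι F)) i j =
        (c : F) * ((g₀ : Matrix ι ι F₀) i j : F) := by
  constructor
  · rintro ⟨x, hx, rfl⟩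
    rw [Subgroup.mul_normal] at hx
    obtain ⟨a, ha, b, hb, rfl⟩ := Set.mem_mul.1 hx
    obtain ⟨g₀, rfl⟩ := ha
    obtain ⟨c, hc⟩ := (Cfsg.Geo.mem_scalars_iff b).1 hb
    refine ⟨g₀, c, fun i j => ?_⟩
    have e : P⁻¹ * ((MulAut.conj P).toMonoidHom
        ((Matrix.GeneralLinearGroup.map (F₀.subtype : F₀ →+* F)) g₀ * b)) * P =
        (Matrix.GeneralLinearGroup.map (F₀.subtype : F₀ →+* F)) g₀ * b := by
      show P⁻¹ * (P * _ * P⁻¹) * P = _
      group
    rw [e, Units.val_mul, hc, Matrix.mul_smul, Matrix.mul_one, Matrix.smul_apply, smul_eq_mul]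
    rfl
  · rintro ⟨g₀, c, h⟩
    refine ⟨P⁻¹ * g * P, ?_, ?_⟩
    · let b : Matrix.GeneralLinearGroup ι F :=
        (Units.map (Matrix.scalar ι : F →+* Matrix ι ι F).toMonoidHom) c
      have hb : (b : Matrix ι ι F) = (c : F) • (1 : Matrix ι ι F) := by
        simp [b, Matrix.smul_one_eq_diagonal]
      have e : P⁻¹ * g * P = (Matrix.GeneralLinearGroup.map (F₀.subtype : F₀ →+* F)) g₀ * b := by
        apply Units.ext
        ext i j
        rw [h i j, Units.val_mul, hb, Matrix.mul_smul, Matrix.mul_one, Matrix.smul_apply,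
          smul_eq_mul]
        rfl
      rw [e]
      exact Subgroup.mul_mem_sup ⟨g₀, rfl⟩ ⟨c, rfl⟩
    · show P * (P⁻¹ * g * P) * P⁻¹ = g
      group

/-- **Dictionary**: the subfield subgroup is the normaliser of the rational structure. -/
theorem mem_subfieldSubgroup_iff_stR [Finite F] {F₀ : Subfield F}
    {P g : Matrix.GeneralLinearGroup ι F} :
    g ∈ Cfsg.Geo.subfieldSubgroup F₀ P ↔ glEquiv ι F g ∈ stR (colBasis P) F₀ := by
  rw [mem_subfieldSubgroup_iff]
  constructor
  · rintro ⟨g₀, c, h⟩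
    refine mem_stR_of_forall (c := (c : F)⁻¹) (inv_ne_zero c.ne_zero) fun v hv => ?_
    obtain ⟨u, hu, rfl⟩ := exists_of_mem_rat hv
    rw [glEquiv_apply, mem_rat_colBasis]
    intro i
    rw [Matrix.mulVec_smul, Matrix.mulVec_mulVec, Matrix.mulVec_mulVec, ← Units.val_mul,
      ← Units.val_mul, Pi.smul_apply, Matrix.mulVec, dotProduct, Finset.smul_sum]
    refine F₀.sum_mem fun j _ => ?_
    have h5 := h i j
    rw [h5, smul_eq_mul]
    have e2 : (c : F)⁻¹ * ((c : F) * ((g₀ : Matrix ι ι F₀) i j : F) * u j) =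
        ((g₀ : Matrix ι ι F₀) i j : F) * u j := by
      rw [← mul_assoc, ← mul_assoc, inv_mul_cancel₀ c.ne_zero, one_mul]
    rw [e2]
    exact F₀.mul_mem ((g₀ : Matrix ι ι F₀) i j).2 (hu j)
  · rintro ⟨c, hc, h⟩
    set N : Matrix ι ι F := ((P⁻¹ * g * P : Matrix.GeneralLinearGroup ι F) : Matrix ι ι F) with hN
    have hmem : ∀ i j, c * N i j ∈ F₀ := by
      intro i j
      have hu : ∀ k, (Pi.single j (1 : F) : ι → F) k ∈ F₀ := by
        intro k
        rw [Pi.single_apply]
        split_ifs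
        · exact F₀.one_mem
        · exact F₀.zero_mem
      have h1 := (h _).1 (mulVec_mem_rat (P := P) hu)
      rw [glEquiv_apply, mem_rat_colBasis] at h1
      have h2 := h1 i
      rw [Matrix.mulVec_smul, Matrix.mulVec_mulVec, Matrix.mulVec_mulVec, ← Units.val_mul,
        ← Units.val_mul, Pi.smul_apply, Matrix.mulVec_single_one, smul_eq_mul] at h2
      exact h2
    let N₀ : Matrix ι ι F₀ := fun i j => ⟨c * N i j, hmem i j⟩
    have hmap : N₀.map (algebraMap F₀ F) = c • N := by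
      ext i j
      rfl
    have hdet : N₀.det ≠ 0 := by
      intro h0
      have h1 : (N₀.map (algebraMap F₀ F)).det = algebraMap F₀ F N₀.det := by
        rw [RingHom.map_det]; rfl
      rw [h0, map_zero, hmap, Matrix.det_smul] at h1
      rcases mul_eq_zero.1 h1 with h2 | h2
      · exact hc (eq_zero_of_pow_eq_zero h2)
      · have h3 : IsUnit N.det := by
          rw [← Matrix.isUnit_iff_isUnit_det]
          exact (P⁻¹ * g * P : Matrix.GeneralLinearGroup ι F).isUnit
        exact h3.ne_zero h2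
    refine ⟨Matrix.GeneralLinearGroup.mkOfDetNeZero N₀ hdet, (Units.mk0 c hc)⁻¹, fun i j => ?_⟩
    show N i j = c⁻¹ * (c * N i j)
    rw [← mul_assoc, inv_mul_cancel₀ hc, one_mul]

/-- **Subfield subgroups of `Ω` are maximal**, dimension at least 7. -/
theorem subfield_maximal [Fintype F] (hn : 7 ≤ Fintype.card ι) (Q : (ι → F) → F)
    (hQ : Cfsg.Geo.IsNondegenerateQuadraticForm Q) (F₀ : Subfield F) (r : ℕ) (hr : r.Prime)
    (hcard : Fintype.card F = Nat.card F₀ ^ r) (P : Matrix.GeneralLinearGroup ι F) (ζ : F)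
    (hζ : ζ ≠ 0)
    (hP : Cfsg.Geo.IsQuadFormRationalStructure (fun v : ι → F => ζ * Q v) F₀ P) :
    Cfsg.Geo.IsMaximalIn (Cfsg.Geo.omegaGL Q)
      (Cfsg.Geo.subfieldSubgroup F₀ P ⊓ Cfsg.Geo.omegaGL Q) := by
  obtain ⟨Q', rfl, hnd⟩ := exists_quadraticForm hQ
  have hcard' : Nat.card F = Nat.card F₀ ^ r := by rw [Nat.card_eq_fintype_card, hcard]
  have hO : O (ζ • Q') = O Q' := by
    ext g
    rw [mem_O, mem_O]
    constructor
    · intro h v
      have := h v
      simp only [_root_.smul_apply, smul_eq_mul] at this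
      exact mul_left_cancel₀ hζ this
    · intro h v
      simp only [_root_.smul_apply, smul_eq_mul, h v]
  have hnd' : Nondeg (ζ • Q') := by
    intro x hx
    apply hnd
    intro y
    have h1 := hx y
    have h2 : polar (ζ • Q') x y = ζ * polar Q' x y := by
      simp only [polar, _root_.smul_apply, smul_eq_mul]
      ring
    rw [h2] at h1
    exact (mul_eq_zero.1 h1).resolve_left hζ
  have hΩ : Cfsg.Geo.omegaGL (⇑(ζ • Q') : (ι → F) → F) = Cfsg.Geo.omegaGL (⇑Q' : (ι → F) → F) := by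
    apply Subgroup.map_injective (f := (glEquiv ι F).toMonoidHom) (glEquiv ι F).injective
    rw [map_omegaGL, map_omegaGL, hO]
  rw [← hΩ]
  have hR : IsRat (ζ • Q') (colBasis P) F₀ := by
    intro v hv
    obtain ⟨u, hu, rfl⟩ := exists_of_mem_rat hv
    exact hP u hu
  exact isMaximalIn_omegaGL (good_of_card hnd' (by omega)) _ (stR (colBasis P) F₀)
    (fun g => mem_subfieldSubgroup_iff_stR) (stR_maximal hnd' hR hn hr hcard')

end Matrices

end Cfsg.Agent.H888.SubfieldMax
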